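import Cfsg.Agent.Lib.Helper37.Ree.Three2
import Cfsg.Agent.Lib.Helper37.Ree.Two
import Cfsg.Agent.Lib.Lead.ReeTI
import Cfsg.Agent.Lib.Lead.ReeMul2

/-!
# Stem extensions of `²G₂(q)`, `q ≥ 27`, are trivial (given the Sylow structure)
-/

set_option autoImplicit false

namespace Cfsg.Agent.Lib.Helper37.ReeM

open scoped commutatorElement
open Cfsg.Agent.Lib.Helper37.CentralExt Cfsg.Lie Cfsg.Agent.Lib.Lead.Ree

variable {K : Type*} [Field K] [Fintype K] {m : ℕ}

/-- the `3`-part -/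
theorem three_part_model (hm : 1 ≤ m) (hK : Fintype.card K = 3 ^ (2 * m + 1))
    {Γ : Type*} [Group Γ] (σ : Γ →* ↥(twistedG2 K (3 ^ m))) (hs : Function.Surjective σ)
    (hc : σ.ker ≤ Subgroup.center Γ) {z : Γ} (hz : z ∈ σ.ker)
    (hz' : z ∈ ⁅(U1 K m).comap σ, (U1 K m).comap σ⁆) : z ^ (Fintype.card K - 1) = 1 := by
  have : Fact (Nat.Prime 3) := ⟨Nat.prime_three⟩
  have : CharP K 3 := charP_three hK
  obtain ⟨T, -, hρR, hf⟩ := exists_twist hK
  let s := Function.surjInv hs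
  have hs' : ∀ g, σ (s g) = g := Function.surjInv_eq hs
  let E : Ext K ↥(twistedG2 K (3 ^ m)) Γ m :=
    { hm := hm
      hK := hK
      W := fun t u v => ⟨Wd hK T hρR hf t u v, Wd_mem_G1 hK T hρR hf t u v⟩
      h := fun c => ⟨hR K m c, hR_mem_G1 hK T hρR hf c⟩
      W_mul := fun t u v t' u' v' => Subtype.ext (Wd_mul hK T hρR hf t u v t' u' v')
      conj_W := fun c t u v => by
        apply Subtype.ext
        have := conj_Wd hK T hρR hf c t u v
        have e1 : ((chB m c : Kˣ) : K) = cA m c := by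
          simp [chB, cA]
        have e2 : ((ch3 m c : Kˣ) : K) = cB m c := by
          simp [ch3, cB]
        rw [e1, e2] at this
        exact this
      σ := σ
      hc := hc
      w := fun t u v => s _
      e := fun c => s _
      hw := fun t u v => hs' _
      he := fun c => hs' _ }
  refine E.three_part (U1 K m) ?_ hz hz'
  intro g hg
  rw [mem_U1] at hg
  have h1 : (g : GL chevG2.Idx K) ∈ chevG2.posUnipotent K ⊓ T.F := by
    rw [← U_inf_G1_eq hK T hρR hf]
    exact ⟨hg, g.2⟩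
  obtain ⟨t, u, v, e⟩ := exists_Wd hK T hρR hf h1
  exact ⟨t, u, v, Subtype.ext e⟩

theorem not_dvd_index_U1' (hK : Fintype.card K = 3 ^ (2 * m + 1)) : ¬ 3 ∣ (U1 K m).index := by
  have : Fact (Nat.Prime 3) := ⟨Nat.prime_three⟩
  have : CharP K 3 := charP_three hK
  obtain ⟨T, -, hρR, hf⟩ := exists_twist hK
  exact not_dvd_index_U1 hK T hρR hf

theorem exists_invol (hK : Fintype.card K = 3 ^ (2 * m + 1)) :
    ∃ a : ↥(twistedG2 K (3 ^ m)), (a : GL chevG2.Idx K) ∈ chevG2.diagonalSubgroup K ∧ a ≠ 1 ∧ a * a = 1 := by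
  have : Fact (Nat.Prime 3) := ⟨Nat.prime_three⟩
  have : CharP K 3 := charP_three hK
  obtain ⟨T, -, hρR, hf⟩ := exists_twist hK
  refine ⟨⟨hR K m (-1), hR_mem_G1 hK T hρR hf (-1)⟩, ?_, ?_, ?_⟩
  · have : hR K m (-1) ∈ (hR K m).range := ⟨-1, rfl⟩
    rw [range_hR hK T hρR hf] at this
    exact this.1
  · intro h
    have h1 : hR K m (-1) = hR K m 1 := by
      rw [map_one]
      exact congrArg Subtype.val h
    have h2 : (-1 : Kˣ) = 1 := hR_injective h1
    have h3 : (-1 : K) = 1 := by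
      have := congrArg Units.val h2
      simpa using this
    have h4 : (3 : K) = 0 := three_zero
    have : (1 : K) = 0 := by linear_combination h4 + h3
    exact one_ne_zero this
  · apply Subtype.ext
    show hR K m (-1) * hR K m (-1) = 1
    rw [← map_mul]
    simp

theorem ker_eq_bot_of_stem (hm : 1 ≤ m) (hK : Fintype.card K = 3 ^ (2 * m + 1))
    (h2 : ∀ S : Sylow 2 ↥(twistedG2 K (3 ^ m)), Nat.card S = 8 ∧ ∀ x ∈ S, x * x = 1)
    (h2' : ∀ S : Sylow 2 ↥(twistedG2 K (3 ^ m)),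
      Subgroup.centralizer ((S : Subgroup ↥(twistedG2 K (3 ^ m))) : Set ↥(twistedG2 K (3 ^ m))) = S ∧
      Nat.card (Subgroup.normalizer ((S : Subgroup ↥(twistedG2 K (3 ^ m))) : Set ↥(twistedG2 K (3 ^ m)))) = 168)
    (hp : ∀ (p : ℕ) [Fact p.Prime], 3 < p → ∀ P : Sylow p ↥(twistedG2 K (3 ^ m)),
      IsCyclic (P : Subgroup ↥(twistedG2 K (3 ^ m))))
    {Γ : Type*} [Group Γ] [Finite Γ] (σ : Γ →* ↥(twistedG2 K (3 ^ m)))
    (hs : Function.Surjective σ) (hc : σ.ker ≤ Subgroup.center Γ) (hd : σ.ker ≤ commutator Γ) :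
    σ.ker = ⊥ := by
  have : Finite ↥(twistedG2 K (3 ^ m)) := Finite.of_surjective σ hs
  rw [Subgroup.eq_bot_iff_forall]
  intro z hz
  -- abelian preimages
  have hab : ∀ M : Subgroup ↥(twistedG2 K (3 ^ m)),
      (∀ u v : Γ, σ u ∈ M → σ v ∈ M → u * v = v * u) → z ^ M.index = 1 := by
    intro M hM
    have h := pow_index_mem_commutator (M.comap σ) (hc hz) (hd hz)
    rw [Subgroup.index_comap_of_surjective _ hs] at h
    have hbot : ⁅M.comap σ, M.comap σ⁆ = ⊥ := by
      rw [Subgroup.commutator_eq_bot_iff_le_centralizer]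
      intro u hu
      rw [Subgroup.mem_centralizer_iff]
      intro v hv
      exact hM v u hv hu
    rw [hbot] at h
    exact Subgroup.mem_bot.1 h
  have h3 : z ^ ((U1 K m).index * (Fintype.card K - 1)) = 1 := by
    have h := pow_index_mem_commutator ((U1 K m).comap σ) (hc hz) (hd hz)
    rw [Subgroup.index_comap_of_surjective _ hs] at h
    have := three_part_model hm hK σ hs hc (Subgroup.pow_mem _ hz _) h
    rwa [← pow_mul] at this
  have hbig : ∀ (p : ℕ) [Fact p.Prime], 3 < p → ∀ P : Sylow p ↥(twistedG2 K (3 ^ m)),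
      z ^ (P : Subgroup ↥(twistedG2 K (3 ^ m))).index = 1 := by
    intro p _ hp3 P
    apply hab
    have hcyc : IsCyclic (P : Subgroup ↥(twistedG2 K (3 ^ m))) := hp p hp3 P
    have hcomm := MonoidHom.isMulCommutative_of_isCyclic_of_ker_le_center
      (σ.subgroupComap (P : Subgroup ↥(twistedG2 K (3 ^ m)))) (by
        intro x hx
        rw [Subgroup.mem_center_iff]
        intro y
        apply Subtype.ext
        have hx1 : (x : Γ) ∈ σ.ker := by
          rw [MonoidHom.mem_ker] at hx ⊢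
          exact congrArg Subtype.val hx
        exact Subgroup.mem_center_iff.1 (hc hx1) y)
    intro u v hu hv
    exact congrArg Subtype.val (hcomm.is_comm.comm ⟨u, hu⟩ ⟨v, hv⟩)
  have htwo : ∀ S : Sylow 2 ↥(twistedG2 K (3 ^ m)), z ^ (S : Subgroup ↥(twistedG2 K (3 ^ m))).index = 1 := by
    intro S
    apply hab
    obtain ⟨h8, hexp⟩ := h2 S
    obtain ⟨hC, hN⟩ := h2' S
    have : Fact (Nat.Prime 7) := ⟨by norm_num⟩
    obtain ⟨n, hn⟩ := exists_prime_orderOf_dvd_card' (G := ↥(Subgroup.normalizer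
      ((S : Subgroup ↥(twistedG2 K (3 ^ m))) : Set ↥(twistedG2 K (3 ^ m))))) 7 (by rw [hN]; norm_num)
    have hn7 : (n : ↥(twistedG2 K (3 ^ m))) ^ 7 = 1 := by
      have := pow_orderOf_eq_one n
      rw [hn] at this
      exact congrArg Subtype.val this
    have hn1 : (n : ↥(twistedG2 K (3 ^ m))) ≠ 1 := by
      intro h
      have : n = 1 := Subtype.ext h
      rw [this, orderOf_one] at hn
      norm_num at hn
    have hnS : (n : ↥(twistedG2 K (3 ^ m))) ∉ (S : Subgroup ↥(twistedG2 K (3 ^ m))) := by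
      intro h
      have h4 := hexp _ h
      apply hn1
      have h6 : (n : ↥(twistedG2 K (3 ^ m))) ^ 6 = 1 := by
        rw [show 6 = 2 * 3 by norm_num, pow_mul, pow_two, h4, one_pow]
      rw [pow_succ, h6, one_mul] at hn7
      exact hn7
    have hnC : (n : ↥(twistedG2 K (3 ^ m))) ∉ Subgroup.centralizer
        ((S : Subgroup ↥(twistedG2 K (3 ^ m))) : Set ↥(twistedG2 K (3 ^ m))) := by
      intro h
      exact hnS (hC.le h)
    rw [Subgroup.mem_centralizer_iff] at hnC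
    push Not at hnC
    obtain ⟨s₀, hs₀, hne⟩ := hnC
    refine two_part σ hs hc (S : Subgroup ↥(twistedG2 K (3 ^ m))) h8 hexp n hn7 ?_ s₀ hs₀ ?_
    · intro x hx
      exact (Subgroup.mem_normalizer_iff.1 n.2 x).1 hx
    · intro h
      apply hne
      exact (mul_inv_eq_iff_eq_mul.1 h).symm
  by_contra hz1
  have hord : orderOf z ≠ 1 := fun h => hz1 (orderOf_eq_one_iff.1 h)
  obtain ⟨r, hr, hrz⟩ := Nat.exists_prime_and_dvd hord
  have : Fact r.Prime := ⟨hr⟩
  by_cases hr3 : r = 3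
  · subst hr3
    have h4 := hrz.trans (orderOf_dvd_of_pow_eq_one h3)
    rcases (Nat.Prime.dvd_mul hr).1 h4 with h5 | h5
    · exact not_dvd_index_U1' hK h5
    · rw [hK, pow_succ] at h5
      have : 0 < 3 ^ (2 * m) := by positivity
      omega
  by_cases hr2 : r = 2
  · subst hr2
    obtain ⟨P⟩ : Nonempty (Sylow 2 ↥(twistedG2 K (3 ^ m))) := inferInstance
    exact P.not_dvd_index (hrz.trans (orderOf_dvd_of_pow_eq_one (htwo P)))
  · have h3r : 3 < r := by
      have := hr.two_le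
      omega
    obtain ⟨P⟩ : Nonempty (Sylow r ↥(twistedG2 K (3 ^ m))) := inferInstance
    exact P.not_dvd_index (hrz.trans (orderOf_dvd_of_pow_eq_one (hbig r h3r P)))

theorem multiplier_trivial (hm : 1 ≤ m) (hK : Fintype.card K = 3 ^ (2 * m + 1))
    (h2 : ∀ S : Sylow 2 ↥(twistedG2 K (3 ^ m)), Nat.card S = 8 ∧ ∀ x ∈ S, x * x = 1)
    (h2' : ∀ S : Sylow 2 ↥(twistedG2 K (3 ^ m)),
      Subgroup.centralizer ((S : Subgroup ↥(twistedG2 K (3 ^ m))) : Set ↥(twistedG2 K (3 ^ m))) = S ∧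
      Nat.card (Subgroup.normalizer ((S : Subgroup ↥(twistedG2 K (3 ^ m))) : Set ↥(twistedG2 K (3 ^ m)))) = 168)
    (hp : ∀ (p : ℕ) [Fact p.Prime], 3 < p → ∀ P : Sylow p ↥(twistedG2 K (3 ^ m)),
      IsCyclic (P : Subgroup ↥(twistedG2 K (3 ^ m)))) :
    Cfsg.HasCyclicSchurMultiplier ↥(twistedG2 K (3 ^ m)) 1 := by
  have hfin : Finite ↥(twistedG2 K (3 ^ m)) := Subtype.finite
  constructor
  · refine ⟨↥(twistedG2 K (3 ^ m)), inferInstance, hfin, MonoidHom.id _, ⟨Function.surjective_id, ?_, ?_⟩, ?_⟩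
    · rw [MonoidHom.ker_id]; exact bot_le
    · rw [MonoidHom.ker_id]; exact bot_le
    · have h1 : Subsingleton (MonoidHom.id ↥(twistedG2 K (3 ^ m))).ker := by
        rw [MonoidHom.ker_id]; infer_instance
      have h2 : Subsingleton (Multiplicative (ZMod 1)) := by
        change Subsingleton (ZMod 1); infer_instance
      have u1 : Unique (MonoidHom.id ↥(twistedG2 K (3 ^ m))).ker :=
        ⟨⟨1⟩, fun a => Subsingleton.elim _ _⟩
      have u2 : Unique (Multiplicative (ZMod 1)) := ⟨⟨1⟩, fun a => Subsingleton.elim _ _⟩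
      exact ⟨MulEquiv.ofUnique⟩
  · intro Γ _ _ σ hσ
    obtain ⟨hs, hc, hd⟩ := hσ
    have key := ker_eq_bot_of_stem hm hK h2 h2' hp σ hs hc hd
    refine ⟨1, ?_⟩
    intro x
    refine ⟨1, ?_⟩
    have hx : (x : Γ) ∈ (⊥ : Subgroup Γ) := key ▸ x.2
    apply Subtype.ext
    rw [Subgroup.mem_bot.1 hx]
    rfl

end Cfsg.Agent.Lib.Helper37.ReeM
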