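import Cfsg.Agent.Lib.Helper37.Ree.Three

/-!
# Central extensions of the Borel subgroup of a small Ree group: the norm argument
-/

set_option autoImplicit false

namespace Cfsg.Agent.Lib.Helper37.ReeM

open scoped commutatorElement
open Cfsg.Agent.Lib.Helper37.CentralExt

open scoped IsMulCommutative in
/-- the norm argument -/
theorem pow_card_eq_one_of_mem_closure {K : Type*} [Field K] [Fintype K] {m : ℕ} (hm : 1 ≤ m)
    (hK : Fintype.card K = 3 ^ (2 * m + 1)) {A : Type*} [Group A] [IsMulCommutative A]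
    (φ : Kˣ → (A →* A)) (γ₁ γ₂ : K → K → A)
    (hl1 : ∀ x x' y, γ₁ (x + x') y = γ₁ x y * γ₁ x' y)
    (heq1 : ∀ (c : Kˣ) t u, φ c (γ₁ t u) = γ₁ (cA m c * t) (cB m c * u))
    (hl2 : ∀ t t'' t', ∃ d ∈ Subgroup.closure (Set.range (fun p : K × K => γ₁ p.1 p.2)),
      γ₂ (t + t'') t' = d * γ₂ t'' t' * γ₂ t t')
    (hanti : ∀ t t', γ₂ t t' = (γ₂ t' t)⁻¹)
    (heq2 : ∀ (c : Kˣ) t t', φ c (γ₂ t t') = γ₂ (cA m c * t) (cA m c * t'))
    (x : A) (hx : x ∈ Subgroup.closure (Set.range (fun p : K × K => γ₁ p.1 p.2) ∪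
      Set.range (fun p : K × K => γ₂ p.1 p.2)))
    (hfix : ∀ c, φ c x = x) : x ^ (Fintype.card K - 1) = 1 := by
  classical
  have := charP_three hK
  let N : A →* A := ∏ k, φ k
  have hN : ∀ y, N y = ∏ k, φ k y := fun y => by
    simp only [N, MonoidHom.finsetProd_apply]
  have hδ1 : ∀ t u, N (γ₁ t u) = 1 := by
    apply pair_trivial_neg_left (fun t u => N (γ₁ t u))
    · intro x x' y
      simp only [hl1, map_mul]
    · intro t u
      simp only [hN, heq1]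
      refine Fintype.prod_equiv (Equiv.mulRight (-1 : Kˣ)) _ _ ?_
      intro k
      simp only [Equiv.coe_mulRight, cA_mul, cB_mul, cA_neg_one, cB_neg_one]
      congr 1 <;> ring
  have hD : Subgroup.closure (Set.range (fun p : K × K => γ₁ p.1 p.2)) ≤ N.ker := by
    rw [Subgroup.closure_le]
    rintro _ ⟨p, rfl⟩
    exact hδ1 p.1 p.2
  have hL : ∀ x x' y, N (γ₂ (x + x') y) = N (γ₂ x y) * N (γ₂ x' y) := by
    intro x x' y
    obtain ⟨d, hd, e⟩ := hl2 x x' y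
    have hd1 : N d = 1 := hD hd
    rw [e, map_mul, map_mul, hd1, one_mul, mul_comm]
  have hδ2 : ∀ t t', N (γ₂ t t') = 1 := by
    apply pair_A hm hK (fun t t' => N (γ₂ t t'))
    · exact hL
    · intro x y y'
      show N (γ₂ x (y + y')) = N (γ₂ x y) * N (γ₂ x y')
      rw [hanti x (y + y'), hanti x y, hanti x y', map_inv, map_inv, map_inv, hL, _root_.mul_inv]
    · intro μ hμ t t'
      obtain ⟨c, rfl⟩ := exists_cA m hK hμ
      simp only [hN, heq2]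
      refine Fintype.prod_equiv (Equiv.mulRight c) _ _ ?_
      intro k
      simp only [Equiv.coe_mulRight, cA_mul, mul_assoc]
  have hle : Subgroup.closure (Set.range (fun p : K × K => γ₁ p.1 p.2) ∪
      Set.range (fun p : K × K => γ₂ p.1 p.2)) ≤ N.ker := by
    rw [Subgroup.closure_le]
    rintro _ (⟨p, rfl⟩ | ⟨p, rfl⟩)
    · exact hδ1 p.1 p.2
    · exact hδ2 p.1 p.2
  have h1 : N x = 1 := hle hx
  rw [hN] at h1
  simp only [hfix, Finset.prod_const, Finset.card_univ, Fintype.card_units] at h1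
  exact h1

namespace Ext

variable {K G Γ : Type*} [Field K] [Fintype K] [Group G] [Group Γ] {m : ℕ} (E : Ext K G Γ m)

/-- commutators between level 0 and level 1 -/
def g1 (t u : K) : Γ := ⁅E.w t 0 0, E.w 0 u 0⁆
/-- commutators on level 0 -/
def g2 (t t' : K) : Γ := ⁅E.w t 0 0, E.w t' 0 0⁆

theorem σ_g1 (t u : K) : E.σ (E.g1 t u) = E.W 0 0 (t * u) := by
  unfold g1
  rw [map_commutatorElement, E.hw, E.hw]
  exact comm_eq_of_mul_eq (E.W_c1 t 0 0 u 0)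

theorem σ_g2 (t t' : K) : ∃ x y, E.σ (E.g2 t t') = E.W 0 x y := by
  obtain ⟨x, y, h⟩ := E.W_c0 t 0 0 t' 0 0
  refine ⟨x, y, ?_⟩
  unfold g2
  rw [map_commutatorElement, E.hw, E.hw]
  exact comm_eq_of_mul_eq h

theorem g1_eq {x y : Γ} {t u v u' v' : K} (hx : E.σ x = E.W t u v) (hy : E.σ y = E.W 0 u' v') :
    ⁅x, y⁆ = E.g1 t u' := by
  have hy' : E.σ (E.w 0 u' 0 * E.w 0 0 v') = E.W 0 u' v' := by
    rw [map_mul, E.hw, E.hw, E.W_00, add_zero, zero_add]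
  rw [comm_congr E.σ E.hc (u' := E.w t 0 0 * E.w 0 u v) (v' := E.w 0 u' 0 * E.w 0 0 v')
      (by rw [hx, map_mul, E.hw, E.hw, E.W_t0]) (by rw [hy, hy']),
    comm_mul_left, commutatorElement_eq_one_iff_mul_comm.2 (E.comm1 (E.hw 0 u v) hy'), mul_one,
    mul_inv_cancel, one_mul, comm_mul_right,
    commutatorElement_eq_one_iff_mul_comm.2 (E.comm2 (E.hw t 0 0) (E.hw 0 0 v')), mul_one,
    mul_inv_cancel, mul_one]
  rfl

theorem g1_addL (t t' u : K) : E.g1 (t + t') u = E.g1 t u * E.g1 t' u := by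
  have h1 : ⁅E.w t 0 0 * E.w t' 0 0, E.w 0 u 0⁆ = E.g1 (t + t') u :=
    E.g1_eq (by rw [map_mul, E.hw, E.hw, E.W_mul]) (E.hw 0 u 0)
  rw [← h1, comm_mul_left]
  change E.w t 0 0 * E.g1 t' u * (E.w t 0 0)⁻¹ * E.g1 t u = _
  rw [E.comm2 (E.hw t 0 0) (E.σ_g1 t' u), mul_inv_cancel_right]
  exact E.comm2 (E.σ_g1 t' u) (E.σ_g1 t u)

theorem g1_addR (t u u' : K) : E.g1 t (u + u') = E.g1 t u * E.g1 t u' := by
  have h1 : ⁅E.w t 0 0, E.w 0 u 0 * E.w 0 u' 0⁆ = E.g1 t (u + u') :=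
    E.g1_eq (E.hw t 0 0) (by rw [map_mul, E.hw, E.hw, E.W_00])
  rw [← h1, comm_mul_right]
  change E.g1 t u * (E.w 0 u 0 * E.g1 t u' * (E.w 0 u 0)⁻¹) = _
  rw [E.comm2 (E.hw 0 u 0) (E.σ_g1 t u'), mul_inv_cancel_right]

theorem g1_zero (t : K) : E.g1 t 0 = 1 := by
  have := E.g1_addR t 0 0
  rw [add_zero] at this
  exact (mul_eq_left.1 this.symm)

theorem g1_conj (c : Kˣ) (t u : K) : E.e c * E.g1 t u * (E.e c)⁻¹ = E.g1 (cA m c * t) (cB m c * u) :=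
  (commC E.σ E.hc (by rw [E.hw, E.hw, E.he, E.conj_Wt]) (by rw [E.hw, E.hw, E.he, E.conj_W0, mul_zero])).symm

theorem g2_conj (c : Kˣ) (t t' : K) : E.e c * E.g2 t t' * (E.e c)⁻¹ = E.g2 (cA m c * t) (cA m c * t') :=
  (commC E.σ E.hc (by rw [E.hw, E.hw, E.he, E.conj_Wt]) (by rw [E.hw, E.hw, E.he, E.conj_Wt])).symm

theorem g2_anti (t t' : K) : E.g2 t t' = (E.g2 t' t)⁻¹ := (commutatorElement_inv _ _).symm

theorem comm_UU {x x' : Γ} {t u v t' u' v' : K} (hx : E.σ x = E.W t u v) (hx' : E.σ x' = E.W t' u' v') :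
    ⁅x, x'⁆ = (E.g1 t' u)⁻¹ * E.g2 t t' * E.g1 t u' := by
  have h' : E.σ (E.w t' 0 0 * E.w 0 u' v') = E.W t' u' v' := by
    rw [map_mul, E.hw, E.hw, E.W_t0]
  have h1 : ⁅E.w 0 u v, E.w t' 0 0 * E.w 0 u' v'⁆ = (E.g1 t' u)⁻¹ := by
    rw [← commutatorElement_inv, E.g1_eq h' (E.hw 0 u v)]
  have h2 : E.σ (E.g1 t' u)⁻¹ = E.W 0 0 (-(t' * u)) := by
    rw [map_inv, E.σ_g1, inv_eq_iff_mul_eq_one, E.W_00, add_zero, add_neg_cancel]
    have := E.W_00 0 0 0 0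
    rw [add_zero] at this
    exact mul_eq_left.1 this
  rw [comm_congr E.σ E.hc (u' := E.w t 0 0 * E.w 0 u v) (v' := E.w t' 0 0 * E.w 0 u' v')
      (by rw [hx, map_mul, E.hw, E.hw, E.W_t0]) (by rw [hx', h']),
    comm_mul_left, h1, E.comm2 (E.hw t 0 0) h2, mul_inv_cancel_right, comm_mul_right,
    E.g1_eq (E.hw t 0 0) (E.hw 0 u' v'), E.comm2 (E.hw t' 0 0) (E.σ_g1 t u'), mul_inv_cancel_right,
    mul_assoc]
  rfl

theorem g2_addL (t t'' t' : K) : ∃ p f, E.g2 (t + t'') t' = E.g1 t' p * E.g1 t f * E.g2 t'' t' * E.g2 t t' := by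
  obtain ⟨f, y, hf⟩ := E.σ_g2 t'' t'
  refine ⟨0 + 0 - t * t'' ^ 3 ^ (m + 1), f, ?_⟩
  have h1 := E.comm_UU (x := E.w t 0 0 * E.w t'' 0 0) (x' := E.w t' 0 0)
    (by rw [map_mul, E.hw, E.hw, E.W_mul]) (E.hw t' 0 0)
  rw [E.g1_zero, mul_one, comm_mul_left] at h1
  have h2 : E.w t 0 0 * ⁅E.w t'' 0 0, E.w t' 0 0⁆ * (E.w t 0 0)⁻¹ = E.g1 t f * E.g2 t'' t' := by
    rw [← E.g1_eq (E.hw t 0 0) hf, commutatorElement_def]
    unfold g2
    group
  rw [h2] at h1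
  rw [mul_assoc (E.g1 t' _), mul_assoc (E.g1 t' _)]
  change _ = _ * (E.g1 t f * E.g2 t'' t' * ⁅E.w t 0 0, E.w t' 0 0⁆)
  rw [h1, mul_inv_cancel_left]

theorem W_zero : E.W 0 0 0 = 1 := by
  have := E.W_00 0 0 0 0
  rw [add_zero] at this
  exact mul_eq_left.1 this

/-- the preimage of level 1 -/
def A : Subgroup Γ where
  carrier := {x | ∃ u v, E.σ x = E.W 0 u v}
  one_mem' := ⟨0, 0, by rw [map_one, E.W_zero]⟩
  mul_mem' := by
    rintro x y ⟨u, v, hx⟩ ⟨u', v', hy⟩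
    exact ⟨_, _, by rw [map_mul, hx, hy, E.W_00]⟩
  inv_mem' := by
    rintro x ⟨u, v, hx⟩
    refine ⟨-u, -v, ?_⟩
    rw [map_inv, hx, inv_eq_iff_mul_eq_one, E.W_00, add_neg_cancel, add_neg_cancel, E.W_zero]

theorem g1_mem (t u : K) : E.g1 t u ∈ E.A := ⟨0, _, E.σ_g1 t u⟩
theorem g2_mem (t t' : K) : E.g2 t t' ∈ E.A := E.σ_g2 t t'

theorem three_part (U : Subgroup G) (hU : ∀ g ∈ U, ∃ t u v, g = E.W t u v) {z : Γ} (hz : z ∈ E.σ.ker)
    (hz' : z ∈ ⁅U.comap E.σ, U.comap E.σ⁆) : z ^ (Fintype.card K - 1) = 1 := by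
  have hAc : IsMulCommutative E.A := ⟨⟨fun x y => by
    obtain ⟨u, v, hx⟩ := x.2
    obtain ⟨u', v', hy⟩ := y.2
    exact Subtype.ext (E.comm1 hx hy)⟩⟩
  let γ₁ : K → K → E.A := fun t u => ⟨E.g1 t u, E.g1_mem t u⟩
  let γ₂ : K → K → E.A := fun t u => ⟨E.g2 t u, E.g2_mem t u⟩
  have hnorm : ∀ (c : Kˣ) (x : Γ), x ∈ E.A → E.e c * x * (E.e c)⁻¹ ∈ E.A := by
    rintro c x ⟨u, v, hx⟩
    exact ⟨_, _, by rw [map_mul, map_mul, map_inv, hx, E.he, E.conj_W0]⟩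
  let φ : Kˣ → (E.A →* E.A) := fun c =>
    { toFun := fun x => ⟨E.e c * x * (E.e c)⁻¹, hnorm c x x.2⟩
      map_one' := by apply Subtype.ext; simp
      map_mul' := fun x y => by apply Subtype.ext; simp }
  have hle : ⁅U.comap E.σ, U.comap E.σ⁆ ≤ (Subgroup.closure (Set.range (fun p : K × K => γ₁ p.1 p.2) ∪
      Set.range (fun p : K × K => γ₂ p.1 p.2))).map E.A.subtype := by
    rw [Subgroup.commutator_le]
    intro x hx x' hx'
    obtain ⟨t, u, v, hx⟩ := hU _ hx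
    obtain ⟨t', u', v', hx'⟩ := hU _ hx'
    refine ⟨(γ₁ t' u)⁻¹ * γ₂ t t' * γ₁ t u', ?_, ?_⟩
    · exact mul_mem (mul_mem (inv_mem (Subgroup.subset_closure (Or.inl ⟨(t', u), rfl⟩)))
        (Subgroup.subset_closure (Or.inr ⟨(t, t'), rfl⟩))) (Subgroup.subset_closure (Or.inl ⟨(t, u'), rfl⟩))
    · exact (E.comm_UU hx hx').symm
  obtain ⟨x, hx, hxz⟩ := hle hz'
  have hxz' : (x : Γ) = z := hxz
  have key := pow_card_eq_one_of_mem_closure E.hm E.hK φ γ₁ γ₂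
    (fun t t' u => Subtype.ext (E.g1_addL t t' u))
    (fun c t u => Subtype.ext (E.g1_conj c t u))
    (by
      intro t t'' t'
      obtain ⟨p, f, h⟩ := E.g2_addL t t'' t'
      refine ⟨γ₁ t' p * γ₁ t f, mul_mem (Subgroup.subset_closure ⟨(t', p), rfl⟩)
        (Subgroup.subset_closure ⟨(t, f), rfl⟩), Subtype.ext h⟩)
    (fun t t' => Subtype.ext (E.g2_anti t t'))
    (fun c t t' => Subtype.ext (E.g2_conj c t t'))
    x hx
    (by
      intro c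
      apply Subtype.ext
      show E.e c * x * (E.e c)⁻¹ = x
      rw [hxz']
      exact conj_central (E.hc hz))
  have := congrArg Subtype.val key
  rw [Subgroup.coe_pow, hxz'] at this
  exact this

end Ext

end Cfsg.Agent.Lib.Helper37.ReeM
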